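import Cfsg.Agent.BG.S2Abelem
import Cfsg.Agent.PGrp.Basic

/-! Polynomial functions on finite `2`-groups (`Deg d f`: all `d`-fold differences vanish), a
Chevalley-Warning type theorem (`Deg.sum_eq_zero`, `card_le_sq_of_aniso`), and the bound
`|G| ≤ |N| |S : T|²` for `2`-groups of class two (`card_le_of_sq`). -/

set_option autoImplicit false

namespace Cfsg.Agent.Gen

open Subgroup Cfsg.Agent.BG
open scoped commutatorElement

universe u

/-- `Deg d f`: all `d`-fold differences of `f` vanish (`f` has degree `< d`). -/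
def Deg {V M : Type*} [Group V] [AddCommGroup M] : ℕ → (V → M) → Prop
  | 0, f => ∀ x, f x = 0
  | d + 1, f => ∀ a, Deg d (fun x => f (x * a) - f x)

namespace Deg

variable {V W M M' : Type*} [Group V] [Group W] [AddCommGroup M] [AddCommGroup M']

theorem congr {d : ℕ} {f g : V → M} (h : Deg d f) (e : ∀ x, g x = f x) : Deg d g := by
  rwa [funext e]

theorem add {d : ℕ} {f g : V → M} (hf : Deg d f) (hg : Deg d g) : Deg d (fun x => f x + g x) := by
  induction d generalizing f g with
  | zero => intro x; simp only [hf x, hg x, add_zero]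
  | succ d ih => exact fun a => (ih (hf a) (hg a)).congr fun x => add_sub_add_comm _ _ _ _

theorem comp {d : ℕ} {f : V → M} (hf : Deg d f) (φ : W →* V) (ψ : M →+ M') :
    Deg d (fun x => ψ (f (φ x))) := by
  induction d generalizing f with
  | zero => intro x; simp only [hf (φ x), map_zero]
  | succ d ih => exact fun a => (ih (hf (φ a))).congr fun x => by simp only [map_mul, map_sub]

theorem succ {d : ℕ} {f : V → M} (hf : Deg d f) : Deg (d + 1) f := by
  induction d generalizing f with
  | zero => intro a x; simp only [hf x, hf (x * a), sub_zero]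
  | succ d ih => exact fun a => ih (hf a)

theorem shift {d : ℕ} {f : V → M} (hf : Deg d f) (a : V) : Deg d (fun x => f (x * a)) := by
  cases d with
  | zero => exact fun x => hf _
  | succ d => exact ((hf a).succ.add hf).congr fun x => by abel

theorem const (c : M) : Deg 1 (fun _ : V => c) := fun _ _ => sub_self c

theorem mono {d e : ℕ} {f : V → M} (hf : Deg d f) (h : d ≤ e) : Deg e f := by
  induction h with
  | refl => exact hf
  | step _ ih => exact ih.succ

theorem of_surjective {d : ℕ} {f : V → M} {φ : W →* V} (hφ : Function.Surjective φ)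
    (hf : Deg d (fun x => f (φ x))) : Deg d f := by
  induction d generalizing f with
  | zero => intro x; obtain ⟨y, rfl⟩ := hφ x; exact hf y
  | succ d ih =>
    intro a
    obtain ⟨b, rfl⟩ := hφ a
    exact ih ((hf b).congr fun x => by simp only [map_mul])

theorem mul {R : Type*} [CommRing R] (n : ℕ) : ∀ {a b : ℕ} {f g : V → R}, a + b = n + 1 →
    Deg a f → Deg b g → Deg n (fun x => f x * g x) := by
  induction n with
  | zero =>
    intro a b f g h hf hg x
    rcases a with _ | a
    · simp only [hf x, zero_mul]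
    · obtain rfl : b = 0 := by omega
      simp only [hg x, mul_zero]
  | succ n ih =>
    intro a b f g h hf hg
    rcases a with _ | a
    · exact mono (d := 0) (fun x => by simp only [hf x, zero_mul]) (Nat.zero_le _)
    rcases b with _ | b
    · exact mono (d := 0) (fun x => by simp only [hg x, mul_zero]) (Nat.zero_le _)
    intro c
    exact ((ih (by omega) (hf c) (hg.shift c)).add (ih (by omega) hf (hg c))).congr
      fun x => by ring

theorem prod {R ι : Type*} [CommRing R] {d : ℕ} (s : Finset ι) {f : ι → V → R}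
    (hf : ∀ i, Deg (d + 1) (f i)) : Deg (d * s.card + 1) (fun x => ∏ i ∈ s, f i x) := by
  classical
  induction s using Finset.induction_on with
  | empty => simpa using const (1 : R)
  | insert i s hi ih =>
    rw [Finset.card_insert_of_notMem hi]
    exact (mul _ (by ring) (hf i) ih).congr fun x => Finset.prod_insert hi

theorem sum_eq_zero (d : ℕ) : ∀ {V : Type u} [Group V] [Fintype V], IsPGroup 2 V →
    2 ^ d ≤ Nat.card V → ∀ f : V → ZMod 2, Deg d f → ∑ x, f x = 0 := by
  classical
  have : Fact (Nat.Prime 2) := ⟨Nat.prime_two⟩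
  induction d with
  | zero => exact fun _ _ f hf => Finset.sum_eq_zero fun x _ => hf x
  | succ d ih =>
    intro V _ _ hV hc f hf
    have hnt : (⊥ : Subgroup V) ≠ ⊤ := by
      intro e
      have := card_top (G := V)
      rw [← e, card_bot] at this
      have := Nat.one_lt_two_pow (n := d + 1) (by omega)
      omega
    obtain ⟨H, hH, -⟩ := (eq_top_or_exists_le_coatom (⊥ : Subgroup V)).resolve_left hnt
    have hi := PGrp.index_of_isCoatom hV hH
    obtain ⟨a, ha⟩ := index_eq_two_iff.1 hi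
    have hc' : 2 ^ d ≤ Nat.card H := by
      have := H.card_mul_index
      rw [hi] at this
      rw [pow_succ] at hc
      omega
    have h1 := ih (hV.to_subgroup H) hc' _ ((hf a).comp H.subtype (AddMonoidHom.id _))
    simp only [AddMonoidHom.id_apply, subtype_apply, Finset.sum_sub_distrib] at h1
    rw [← Finset.sum_filter_add_sum_filter_not Finset.univ (fun x => x ∈ H),
      Finset.sum_subtype (p := fun x => x ∈ H) _ (by simp)]
    have h2 : ∑ x ∈ Finset.univ.filter (fun x => ¬ x ∈ H), f x = ∑ x : H, f (x * a) := by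
      rw [← Finset.sum_subtype (p := fun x => x ∈ H) (Finset.univ.filter (fun x => x ∈ H)) (by simp)
        (fun x => f (x * a))]
      refine (Finset.sum_equiv (Equiv.mulRight a) (fun x => ?_) fun x _ => rfl).symm
      have := ha x
      simp only [Finset.mem_filter, Finset.mem_univ, true_and, Equiv.coe_mulRight]
      unfold Xor at this
      tauto
    rw [h2, sub_eq_zero.1 h1]
    exact CharTwo.add_self_eq_zero _

end Deg

theorem zmod_two_add_eq_zero : ∀ c : ZMod 2, c ≠ 0 → 1 + c = 0 := by decide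

theorem card_le_sq_of_aniso {V U : Type*} [Group V] [Finite V] (hV : IsPGroup 2 V) [AddCommGroup U]
    [Module (ZMod 2) U] [Finite U] {Q : V → U} (hQ : Deg 3 Q) (h0 : ∀ x, Q x = 0 ↔ x = 1) :
    Nat.card V ≤ Nat.card U ^ 2 := by
  classical
  have : Fact (Nat.Prime 2) := ⟨Nat.prime_two⟩
  have := Fintype.ofFinite V
  let b := Module.finBasis (ZMod 2) U
  have hU : Nat.card U = 2 ^ Module.finrank (ZMod 2) U := by
    rw [Module.natCard_eq_pow_finrank (K := ZMod 2), Nat.card_zmod]
  obtain ⟨n, hn⟩ := hV.exists_card_eq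
  by_contra hlt
  rw [hU, hn, ← pow_mul, not_le, Nat.pow_lt_pow_iff_right one_lt_two] at hlt
  have h1 := Deg.sum_eq_zero _ hV (by
      rw [hn, Finset.card_univ, Fintype.card_fin]; exact Nat.pow_le_pow_right two_pos (by omega)) _
    (Deg.prod (d := 2) Finset.univ (f := fun i x => 1 + b.coord i (Q x)) fun i =>
      ((Deg.const 1).mono (by omega)).add (hQ.comp (MonoidHom.id V) (b.coord i).toAddMonoidHom))
  rw [Finset.sum_eq_single 1] at h1
  · simp [(h0 1).2 rfl] at h1
  · intro x _ hx
    obtain ⟨i, hi⟩ : ∃ i, b.coord i (Q x) ≠ 0 := by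
      by_contra hcon
      push Not at hcon
      exact hx ((h0 x).1 (b.forall_coord_eq_zero_iff.1 hcon))
    refine Finset.prod_eq_zero (Finset.mem_univ i) ?_
    exact zmod_two_add_eq_zero _ hi
  · simp

theorem card_le_mul_sq {V U : Type*} [Group V] [Finite V] (hV : IsPGroup 2 V) [AddCommGroup U]
    [Module (ZMod 2) U] [Finite U] {Q : V → U} (hQ : Deg 3 Q) {S N : Subgroup V} [S.Normal]
    (hSN : S ≤ N) (hS : ∀ x, ∀ s ∈ S, Q (x * s) = Q x) (h1 : ∀ x, x ^ 2 ∈ S)
    (h2 : ∀ x y : V, ⁅x, y⁆ ∈ S) (h0 : ∀ x, Q x = 0 ↔ x ∈ N) :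
    Nat.card V ≤ Nat.card N * Nat.card U ^ 2 := by
  have : Fact (Nat.Prime 2) := ⟨Nat.prime_two⟩
  let Q' : V ⧸ S → U := Quotient.lift Q fun x y h => by
    rw [← hS x _ (QuotientGroup.leftRel_apply.1 h), mul_inv_cancel_left]
  have hQ' : Deg 3 Q' := Deg.of_surjective (QuotientGroup.mk'_surjective S) hQ
  have hE : Abelem 2 (⊤ : Subgroup (V ⧸ S)) := by
    refine ⟨abelian_of_cent (le_cent_iff.2 fun a _ b _ => ?_), fun a _ => ?_⟩
    · obtain ⟨x, rfl⟩ := QuotientGroup.mk'_surjective S a
      obtain ⟨y, rfl⟩ := QuotientGroup.mk'_surjective S b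
      rw [← commutatorElement_eq_one_iff_mul_comm, ← map_commutatorElement]
      exact (QuotientGroup.eq_one_iff _).2 (h2 x y)
    · obtain ⟨x, rfl⟩ := QuotientGroup.mk'_surjective S a
      rw [← map_pow]
      exact (QuotientGroup.eq_one_iff _).2 (h1 x)
  obtain ⟨W, hW⟩ := abelem_splits hE (le_top : N.map (QuotientGroup.mk' S) ≤ ⊤)
  have h3 := card_le_sq_of_aniso ((hV.to_quotient S).to_subgroup W)
    (hQ'.comp W.subtype (AddMonoidHom.id U)) fun ⟨w, hw⟩ => by
      obtain ⟨x, rfl⟩ := QuotientGroup.mk'_surjective S w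
      refine ⟨fun h => Subtype.ext ?_, fun h => (h0 x).2 (hSN ?_)⟩
      · exact hW.inf.le ⟨mem_map_of_mem _ ((h0 x).1 h), hw⟩
      · exact (QuotientGroup.eq_one_iff _).1 (congrArg Subtype.val h)
  have h4 := hW.card
  have h5 := Solv.card_map_mul_card_inf_ker (QuotientGroup.mk' S) N
  rw [QuotientGroup.ker_mk', inf_eq_left.2 hSN] at h5
  rw [card_top] at h4
  rw [card_eq_card_quotient_mul_card_subgroup S, ← h4, ← h5, mul_right_comm]
  exact Nat.mul_le_mul_left _ h3

/-- The squaring map into a central elementary abelian subgroup has degree two. -/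
theorem deg_sq {G : Type*} [Group G] {S : Subgroup G} (hS : Abelem 2 S) (hZ : S ≤ center G)
    (h1 : ∀ x, x ^ 2 ∈ S) (h2 : ∀ x y : G, ⁅x, y⁆ ∈ S) :
    Deg 3 (fun x => AbV.mk hS (x ^ 2) (h1 x)) := by
  have hc : ∀ x y z : G, Commute ⁅x, y⁆ z := fun x y z => PGrp.commute_of_mem_center (hZ (h2 x y)) z
  intro a b c x
  have e1 : ∀ x, AbV.mk hS ((x * a) ^ 2) (h1 _) =
      AbV.mk hS ⁅a, x⁆ (h2 _ _) + (AbV.mk hS (x ^ 2) (h1 _) + AbV.mk hS (a ^ 2) (h1 _)) := fun x =>
    AbV.ext (by
      simp only [AbV.val_add, AbV.val_mk]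
      rw [PGrp.mul_pow_of_commute_commutator (hc _ _ _) (hc _ _ _)]
      simp)
  have e2 : ∀ x y, AbV.mk hS ⁅a, x * y⁆ (h2 _ _) =
      AbV.mk hS ⁅a, x⁆ (h2 _ _) + AbV.mk hS ⁅a, y⁆ (h2 _ _) := fun x y =>
    AbV.ext (by
      simp only [AbV.val_add, AbV.val_mk]
      exact PGrp.commutator_mul_right (hc _ _ _))
  simp only [e1, e2]
  abel

theorem card_le_of_sq {G : Type*} [Group G] [Finite G] (hG : IsPGroup 2 G) {S T N : Subgroup G}
    (hS : Abelem 2 S) (hZ : S ≤ center G) (h1 : ∀ x, x ^ 2 ∈ S) (h2 : ∀ x y : G, ⁅x, y⁆ ∈ S)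
    (hT : T ≤ S) (h0 : ∀ x, x ^ 2 ∈ T ↔ x ∈ N) :
    Nat.card G * #T ^ 2 ≤ #N * #S ^ 2 := by
  have : S.Normal := ⟨fun n hn g => by
    rw [mem_center_iff.1 (hZ hn) g, mul_inv_cancel_right]; exact hn⟩
  have : Finite (AbV hS ⧸ AbV.ofSub hS T) := Finite.of_surjective _ (AbV.ofSub hS T).mkQ_surjective
  have h3 := card_le_mul_sq hG ((deg_sq hS hZ h1 h2).comp (MonoidHom.id G)
    (AbV.ofSub hS T).mkQ.toAddMonoidHom) (S := S) (N := N)
    (fun s hs => (h0 s).1 (by rw [hS.2 s hs]; exact T.one_mem))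
    (fun x s hs => by
      simp only [MonoidHom.id_apply, (PGrp.commute_of_mem_center (hZ hs) x).symm.mul_pow,
        hS.2 s hs, mul_one]) h1 h2 fun x => by
      rw [← h0]
      exact (Submodule.Quotient.mk_eq_zero _).trans AbV.mem_ofSub
  have h4 := (AbV.ofSub hS T).card_eq_card_quotient_mul_card
  rw [AbV.card, ← AbV.card_toSub, AbV.toSub_ofSub_of_le hT] at h4
  rw [h4, mul_pow, mul_comm (#T ^ 2), ← mul_assoc]
  exact Nat.mul_le_mul_right _ h3

end Cfsg.Agent.Gen
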